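import Cfsg.Agent.Lib.Helper50.FOT.Defs

/-!
# Project FOT (S3999): package [ORD]

Element orders in a group with Frobenius data, and the count of `p`-elements for `p ∣ |K|`.
-/

set_option autoImplicit false
open scoped Pointwise

namespace Cfsg.Agent.Lib.Helper55.FOT

open Cfsg.Agent.Lib.Helper50.FOT

universe u

theorem card_conj_smul {X : Type u} [Group X] (g : X) (C : Subgroup X) :
    Nat.card (MulAut.conj g • C : Subgroup X) = Nat.card C :=
  (Nat.card_congr (Subgroup.equivSMul (MulAut.conj g) C).toEquiv).symm

theorem ord_dvd {X : Type u} [Group X] [Finite X] {K C : Subgroup X} (h : FD X K C) (x : X) :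
    orderOf x ∣ Nat.card K ∨ orderOf x ∣ Nat.card C := by
  rcases h.cover x with hx | ⟨g, hg⟩
  · left; exact Subgroup.orderOf_dvd_natCard K hx
  · right
    have h1 := Subgroup.orderOf_dvd_natCard _ hg
    rwa [card_conj_smul] at h1

theorem ord_count {X : Type u} [Group X] [Finite X] {K C : Subgroup X} (h : FD X K C) (p : ℕ)
    (hp : p.Prime) :
    Nat.card {x : X // orderOf x ∣ p ^ (Nat.card K).factorization p}
      = p ^ (Nat.card K).factorization p := by
  haveI : Fact p.Prime := ⟨hp⟩
  haveI := h.nilp
  have P : Sylow p K := default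
  have hPn : (P : Subgroup K).Normal :=
    Sylow.normal_of_normalizerCondition Group.normalizerCondition_of_isNilpotent P
  have hPc : Nat.card P = p ^ (Nat.card K).factorization p := Sylow.card_eq_multiplicity P
  have hset : {x : X | orderOf x ∣ p ^ (Nat.card K).factorization p}
      = (((P : Subgroup K).map K.subtype : Subgroup X) : Set X) := by
    ext x
    simp only [Set.mem_setOf_eq, SetLike.mem_coe, Subgroup.mem_map]
    constructor
    · intro hx
      have hxK : x ∈ K := by
        rcases h.cover x with hxK | ⟨g, hg⟩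
        · exact hxK
        · have h1 := Subgroup.orderOf_dvd_natCard _ hg
          rw [card_conj_smul] at h1
          have h2 : orderOf x ∣ Nat.card K := hx.trans (Nat.ordProj_dvd _ _)
          have h3 : orderOf x = 1 := Nat.eq_one_of_dvd_coprimes h.cop h2 h1
          rw [orderOf_eq_one_iff] at h3
          rw [h3]; exact K.one_mem
      refine ⟨⟨x, hxK⟩, ?_, rfl⟩
      have ho : orderOf (⟨x, hxK⟩ : K) ∣ p ^ (Nat.card K).factorization p := by
        rw [← Subgroup.orderOf_coe]; exact hx
      obtain ⟨k, -, hk⟩ := (Nat.dvd_prime_pow hp).mp ho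
      have hpg : IsPGroup p (Subgroup.zpowers (⟨x, hxK⟩ : K)) :=
        IsPGroup.of_card (n := k) (by rw [Nat.card_zpowers, hk])
      obtain ⟨Q, hQ⟩ := hpg.exists_le_sylow
      haveI := Sylow.unique_of_normal P hPn
      have hQP : Q = P := Subsingleton.elim _ _
      rw [← hQP]; exact hQ (Subgroup.mem_zpowers _)
    · rintro ⟨y, hy, rfl⟩
      rw [Subgroup.coe_subtype, Subgroup.orderOf_coe, ← hPc]
      exact Subgroup.orderOf_dvd_natCard _ hy
  calc Nat.card {x : X // orderOf x ∣ p ^ (Nat.card K).factorization p}
      = Nat.card ((P : Subgroup K).map K.subtype) := Nat.card_congr (Equiv.setCongr hset)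
    _ = Nat.card P := Subgroup.card_subtype K P
    _ = _ := hPc

/-- [ORD] -/
theorem pkgOrd : PkgOrd.{u} := by
  intro X _ _ K C h
  exact ⟨fun x => ord_dvd h x, fun p hp _ => ord_count h p hp⟩

end Cfsg.Agent.Lib.Helper55.FOT
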